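import Mathlib.Data.Complex.Basic
import Mathlib.GroupTheory.Perm.Fin
import Mathlib.LinearAlgebra.FiniteDimensional.Lemmas
import Mathlib.Algebra.BigOperators.Fin
import Mathlib.LinearAlgebra.Span.Basic
import Mathlib.Tactic

/-!
# The alternating sum over flag types of the numbers of invariant flags

For an endomorphism of a finite vector space, the signed sum over the permutations `κ` with
`κ i ≤ i + 1` of the number of invariant flags of type `i ↦ i + 1 - κ i` is evaluated by any
function `G` on invariant subspaces whose sums over upper intervals vanish.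
-/

set_option autoImplicit false

namespace CfsgLib.SteinbergValues

variable {F V : Type*} [Field F] [AddCommGroup V] [Module F V] (f : Module.End F V)

/-- The invariant subspaces. -/
abbrev Inv : Type _ := {W : Submodule F V // W.map f ≤ W}

/-- Invariant flags of type `c` above `U`. -/
def Above {m : ℕ} (c : Fin m → ℕ) (U : Submodule F V) : Type _ :=
  {W : Fin m → Submodule F V // (∀ a, U ≤ W a ∧ (W a).map f ≤ W a ∧
    Module.finrank F (W a) = Module.finrank F U + ∑ k ∈ Finset.Iic a, c k) ∧
      ∀ a b, a ≤ b → W a ≤ W b}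

/-- Their number. -/
noncomputable def numAbove {m : ℕ} (c : Fin m → ℕ) (U : Submodule F V) : ℕ :=
  Nat.card (Above f c U)

instance instFiniteInv [Finite V] : Finite (Inv f) :=
  Finite.of_injective (fun W : Inv f => (W.1 : Set V)) fun _ _ h => Subtype.ext (SetLike.coe_injective h)

theorem finite_above [Finite V] {m : ℕ} (c : Fin m → ℕ) (U : Submodule F V) : Finite (Above f c U) :=
  Finite.of_injective (fun W : Above f c U => fun a => (W.1 a : Set V))
    fun _ _ h => Subtype.ext (funext fun a => SetLike.coe_injective (congrFun h a))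

theorem numAbove_zero (c : Fin 0 → ℕ) (U : Submodule F V) : numAbove f c U = 1 := by
  rw [numAbove, Nat.card_eq_one_iff_unique]
  exact ⟨⟨fun W W' => Subtype.ext (funext fun a => a.elim0)⟩,
    ⟨⟨fun a => a.elim0, fun a => a.elim0, fun a => a.elim0⟩⟩⟩

theorem sum_Iic_zero_cons {m : ℕ} (d : ℕ) (c : Fin m → ℕ) :
    ∑ k ∈ Finset.Iic (0 : Fin (m + 1)), (Fin.cons d c : Fin (m + 1) → ℕ) k = d := by
  rw [show Finset.Iic (0 : Fin (m + 1)) = {0} by ext k; simp, Finset.sum_singleton, Fin.cons_zero]

theorem sum_Iic_succ_cons {m : ℕ} (d : ℕ) (c : Fin m → ℕ) (a : Fin m) :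
    ∑ k ∈ Finset.Iic a.succ, (Fin.cons d c : Fin (m + 1) → ℕ) k = d + ∑ k ∈ Finset.Iic a, c k := by
  rw [show Finset.Iic a.succ = insert 0 ((Finset.Iic a).map (Fin.succEmb m)) by
      ext k
      refine Fin.cases ?_ ?_ k
      · simp
      · intro j; simp [Fin.succ_ne_zero],
    Finset.sum_insert (by simp [Fin.succ_ne_zero]), Finset.sum_map, Fin.cons_zero]
  simp

/-- The flags above `U` of type `d, c` are the flags of type `c` above a subspace of dimension
`d` more. -/
def consEquiv {m : ℕ} (d : ℕ) (c : Fin m → ℕ) (U : Submodule F V) :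
    Above f (Fin.cons d c : Fin (m + 1) → ℕ) U ≃
      Σ U' : {U' : Inv f // U ≤ U'.1 ∧ Module.finrank F U'.1 = Module.finrank F U + d},
        Above f c U'.1.1 where
  toFun W := ⟨⟨⟨W.1 0, (W.2.1 0).2.1⟩, (W.2.1 0).1, by rw [(W.2.1 0).2.2, sum_Iic_zero_cons]⟩,
    ⟨fun a => W.1 a.succ, fun a => ⟨W.2.2 0 a.succ (Fin.zero_le _), (W.2.1 a.succ).2.1, by
      rw [(W.2.1 a.succ).2.2, (W.2.1 0).2.2, sum_Iic_zero_cons, sum_Iic_succ_cons]
      omega⟩, fun a b h => W.2.2 _ _ (Fin.succ_le_succ_iff.2 h)⟩⟩
  invFun x := ⟨Fin.cons x.1.1.1 x.2.1, by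
      refine ⟨fun a => ?_, fun a b => ?_⟩
      · refine Fin.cases ?_ ?_ a
        · rw [Fin.cons_zero, sum_Iic_zero_cons]
          exact ⟨x.1.2.1, x.1.1.2, x.1.2.2⟩
        · intro j
          rw [Fin.cons_succ, sum_Iic_succ_cons]
          obtain ⟨h1, h2, h3⟩ := x.2.2.1 j
          refine ⟨x.1.2.1.trans h1, h2, ?_⟩
          rw [h3, x.1.2.2]
          omega
      · refine Fin.cases ?_ ?_ a
        · refine Fin.cases ?_ ?_ b
          · exact fun _ => le_rfl
          · intro j _
            rw [Fin.cons_zero, Fin.cons_succ]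
            exact (x.2.2.1 j).1
        · intro i
          refine Fin.cases ?_ ?_ b
          · intro h
            exact absurd h (by simp [Fin.succ_ne_zero])
          · intro j h
            rw [Fin.cons_succ, Fin.cons_succ]
            exact x.2.2.2 i j (Fin.succ_le_succ_iff.1 h)⟩
  left_inv W := Subtype.ext (Fin.cons_self_tail W.1)
  right_inv x := by
    obtain ⟨⟨⟨U', hU'⟩, hU'2⟩, ⟨W, hW⟩⟩ := x
    rfl

theorem numAbove_cons [Finite V] {m : ℕ} (d : ℕ) (c : Fin m → ℕ) (U : Submodule F V)
    [Fintype (Inv f)] [DecidablePred fun U' : Inv f =>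
      U ≤ U'.1 ∧ Module.finrank F U'.1 = Module.finrank F U + d] :
    numAbove f (Fin.cons d c : Fin (m + 1) → ℕ) U =
      ∑ U' ∈ Finset.univ.filter (fun U' : Inv f =>
        U ≤ U'.1 ∧ Module.finrank F U'.1 = Module.finrank F U + d), numAbove f c U'.1 := by
  rw [numAbove, Nat.card_congr (consEquiv f d c U)]
  haveI : ∀ U' : {U' : Inv f // U ≤ U'.1 ∧ Module.finrank F U'.1 = Module.finrank F U + d},
      Finite (Above f c U'.1.1) := fun U' => finite_above f c _
  rw [Nat.card_sigma, Finset.sum_subtype (p := fun U' : Inv f =>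
    U ≤ U'.1 ∧ Module.finrank F U'.1 = Module.finrank F U + d) _ (fun U' => by simp)]
  rfl

/-- The flag type of a permutation, with `a` added at the position sent to zero. -/
def permType {m : ℕ} (a : ℕ) (κ : Equiv.Perm (Fin m)) : Fin m → ℕ :=
  fun i => i.val + 1 - (κ i).val + if (κ i).val = 0 then a else 0

/-- The signed sum. -/
noncomputable def signedSum (m : ℕ) (U : Submodule F V) (a : ℕ) : ℤ :=
  ∑ κ : Equiv.Perm (Fin m), if ∀ i : Fin m, (κ i).val ≤ i.val + 1 then
    (Equiv.Perm.sign κ : ℤ) * (numAbove f (permType a κ) U : ℤ) else 0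

theorem signedSum_zero (U : Submodule F V) (a : ℕ) : signedSum f 0 U a = 1 := by
  rw [signedSum, Fintype.sum_eq_single (1 : Equiv.Perm (Fin 0)) (fun κ h => absurd (Subsingleton.elim _ _) h),
    if_pos (fun i => i.elim0), numAbove_zero]
  simp

theorem decomposeZero_le {m : ℕ} (e : Equiv.Perm (Fin m)) :
    (∀ i, ((Equiv.Perm.decomposeFin.symm ((0 : Fin (m + 1)), e)) i).val ≤ i.val + 1) ↔
      ∀ x, (e x).val ≤ x.val + 1 := by
  constructor
  · intro h x
    have := h x.succ
    simp at this
    omega
  · intro h i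
    refine Fin.cases ?_ ?_ i
    · simp
    · intro x
      have := h x
      simp
      omega

theorem permType_decomposeZero {m : ℕ} (a : ℕ) (e : Equiv.Perm (Fin m)) :
    permType a (Equiv.Perm.decomposeFin.symm ((0 : Fin (m + 1)), e)) =
      (Fin.cons (1 + a) (permType 0 e) : Fin (m + 1) → ℕ) := by
  funext i
  refine Fin.cases ?_ ?_ i
  · simp [permType]
  · intro x
    simp [permType]

theorem succ_succ_ne_one {m : ℕ} {i : Fin (m + 1)} {j : Fin m} (hj : i = j.succ) :
    i.succ ≠ (1 : Fin (m + 2)) := fun h =>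
  Fin.succ_ne_zero j (hj ▸ Fin.succ_injective _ (h.trans Fin.succ_zero_eq_one.symm))

theorem decomposeOne_le {m : ℕ} (e : Equiv.Perm (Fin (m + 1))) :
    (∀ i, ((Equiv.Perm.decomposeFin.symm ((1 : Fin (m + 2)), e)) i).val ≤ i.val + 1) ↔
      ∀ x, (e x).val ≤ x.val + 1 := by
  constructor
  · intro h x
    have := h x.succ
    rcases Fin.eq_zero_or_eq_succ (e x) with h0 | ⟨j, hj⟩
    · simp [h0]
    · rw [Equiv.Perm.decomposeFin_symm_apply_succ, Equiv.swap_apply_of_ne_of_ne (Fin.succ_ne_zero _)
        (succ_succ_ne_one hj)] at this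
      simp at this
      omega
  · intro h i
    refine Fin.cases ?_ ?_ i
    · simp
    · intro x
      rw [Equiv.Perm.decomposeFin_symm_apply_succ]
      rcases Fin.eq_zero_or_eq_succ (e x) with h0 | ⟨j, hj⟩
      · rw [h0, Fin.succ_zero_eq_one, Equiv.swap_apply_right]
        simp
      · rw [Equiv.swap_apply_of_ne_of_ne (Fin.succ_ne_zero _)
          (succ_succ_ne_one hj)]
        have := h x
        simp
        omega

theorem permType_decomposeOne {m : ℕ} (a : ℕ) (e : Equiv.Perm (Fin (m + 1))) :
    permType a (Equiv.Perm.decomposeFin.symm ((1 : Fin (m + 2)), e)) =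
      (Fin.cons 0 (permType (a + 1) e) : Fin (m + 2) → ℕ) := by
  funext i
  refine Fin.cases ?_ ?_ i
  · simp [permType]
  · intro x
    rw [Fin.cons_succ]
    simp only [permType, Equiv.Perm.decomposeFin_symm_apply_succ]
    rcases Fin.eq_zero_or_eq_succ (e x) with h0 | ⟨j, hj⟩
    · rw [h0, Fin.succ_zero_eq_one, Equiv.swap_apply_right]
      simp
      omega
    · rw [Equiv.swap_apply_of_ne_of_ne (Fin.succ_ne_zero _)
        (succ_succ_ne_one hj)]
      simp [hj]

theorem decompose_large {m : ℕ} (e : Equiv.Perm (Fin (m + 1))) (j : Fin m) :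
    ¬ ∀ i, ((Equiv.Perm.decomposeFin.symm ((j.succ.succ : Fin (m + 2)), e)) i).val ≤ i.val + 1 := by
  intro h
  have := h 0
  simp at this

variable [Finite V]

theorem numAbove_cons_zero {m : ℕ} (c : Fin m → ℕ) (U : Submodule F V) (hU : U.map f ≤ U) :
    numAbove f (Fin.cons 0 c : Fin (m + 1) → ℕ) U = numAbove f c U := by
  classical
  haveI := Fintype.ofFinite (Inv f)
  rw [numAbove_cons, Finset.sum_eq_single (⟨U, hU⟩ : Inv f)]
  · intro W hW hne
    simp only [Finset.mem_filter, Finset.mem_univ, true_and, add_zero] at hW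
    exact absurd (Subtype.ext (Submodule.eq_of_le_of_finrank_eq hW.1 hW.2.symm).symm) hne
  · intro h
    simp at h

theorem signedSum_succ [Fintype (Inv f)] [DecidableEq (Inv f)] {m : ℕ} (U : Submodule F V)
    (hU : U.map f ≤ U) (a : ℕ) [DecidablePred fun U' : Inv f =>
      U ≤ U'.1 ∧ Module.finrank F U'.1 = Module.finrank F U + (1 + a)] :
    signedSum f (m + 2) U a =
      (∑ U' ∈ Finset.univ.filter (fun U' : Inv f =>
        U ≤ U'.1 ∧ Module.finrank F U'.1 = Module.finrank F U + (1 + a)), signedSum f (m + 1) U'.1 0) -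
      signedSum f (m + 1) U (a + 1) := by
  rw [signedSum, ← Equiv.sum_comp Equiv.Perm.decomposeFin.symm, Fintype.sum_prod_type,
    Fin.sum_univ_succ, Fin.sum_univ_succ]
  rw [Finset.sum_eq_zero (s := (Finset.univ : Finset (Fin m)))
    (fun j _ => Finset.sum_eq_zero fun e _ => if_neg (decompose_large e j)), add_zero, sub_eq_add_neg]
  congr 1
  · simp only [decomposeZero_le, permType_decomposeZero, Equiv.Perm.decomposeFin.symm_sign, if_pos,
      one_mul]
    simp only [numAbove_cons, Nat.cast_sum, Finset.mul_sum]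
    simp only [signedSum]
    rw [Finset.sum_comm]
    refine Finset.sum_congr rfl fun e _ => ?_
    split_ifs
    · rfl
    · simp
  · rw [Fin.succ_zero_eq_one, signedSum, ← Finset.sum_neg_distrib]
    refine Finset.sum_congr rfl fun e _ => ?_
    simp only [decomposeOne_le, permType_decomposeOne, numAbove_cons_zero f _ U hU,
      Equiv.Perm.decomposeFin.symm_sign]
    split_ifs with h1 h2
    · exact absurd h2 (by simp)
    · simp
    · simp

theorem signedSum_one [Fintype (Inv f)] (U : Submodule F V) (a : ℕ)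
    (hn : Module.finrank F U + 1 + a = Module.finrank F V) : signedSum f 1 U a = 1 := by
  classical
  rw [signedSum, Fintype.sum_eq_single (1 : Equiv.Perm (Fin 1)) (fun κ h => absurd (Subsingleton.elim _ _) h),
    if_pos (fun i => by simp)]
  have h1 : permType a (1 : Equiv.Perm (Fin 1)) = (Fin.cons (1 + a) ![] : Fin 1 → ℕ) := by
    funext i
    obtain rfl : i = 0 := Subsingleton.elim _ _
    simp [permType]
  rw [h1, numAbove_cons]
  simp only [numAbove_zero, Finset.sum_const, smul_eq_mul, mul_one]
  rw [Finset.card_eq_one.2 ⟨⟨⊤, le_top⟩, ?_⟩]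
  · simp
  · ext W
    simp only [Finset.mem_filter, Finset.mem_univ, true_and, Finset.mem_singleton]
    constructor
    · intro h
      exact Subtype.ext (Submodule.eq_top_of_finrank_eq (by omega))
    · rintro rfl
      exact ⟨le_top, by rw [finrank_top]; omega⟩

open scoped Classical in
/-- The signed sum in terms of a function with vanishing interval sums. -/
theorem signedSum_eq [Fintype (Inv f)] (G : Inv f → ℤ) (htop : G ⟨⊤, le_top⟩ = 1)
    (hsum : ∀ U : Inv f, U.1 ≠ ⊤ → ∑ U' ∈ Finset.univ.filter (fun U' : Inv f => U.1 ≤ U'.1), G U' = 0) :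
    ∀ (m : ℕ) (U : Inv f) (a : ℕ), Module.finrank F U.1 + (m + 1) + a = Module.finrank F V →
      signedSum f (m + 1) U.1 a = (-1) ^ m * ∑ U' ∈ Finset.univ.filter (fun U' : Inv f =>
        U.1 ≤ U'.1 ∧ Module.finrank F U.1 + (1 + a) ≤ Module.finrank F U'.1), G U' := by
  intro m
  induction m with
  | zero =>
    intro U a hn
    rw [signedSum_one f U.1 a (by omega), pow_zero, one_mul, Finset.sum_eq_single (⟨⊤, le_top⟩ : Inv f)]
    · exact htop.symm
    · intro W hW hne
      simp only [Finset.mem_filter, Finset.mem_univ, true_and] at hW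
      have := Submodule.finrank_le W.1
      exact absurd (Subtype.ext (Submodule.eq_top_of_finrank_eq (by omega))) hne
    · intro h
      refine absurd (Finset.mem_filter.2 ⟨Finset.mem_univ _, le_top, ?_⟩) h
      simp only [finrank_top]
      omega
  | succ m ih =>
    intro U a hn
    rw [signedSum_succ f U.1 U.2 a, ih U (a + 1) (by omega)]
    have hinner : ∀ U' ∈ Finset.univ.filter (fun U' : Inv f =>
        U.1 ≤ U'.1 ∧ Module.finrank F U'.1 = Module.finrank F U.1 + (1 + a)),
        signedSum f (m + 1) U'.1 0 = (-1) ^ (m + 1) * G U' := by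
      intro W hW
      simp only [Finset.mem_filter, Finset.mem_univ, true_and] at hW
      rw [ih W 0 (by omega)]
      have hne : W.1 ≠ ⊤ := fun h => by
        have := hW.2
        rw [h, finrank_top] at this
        omega
      have h0 := hsum W hne
      rw [← Finset.add_sum_erase _ _ (a := W) (by simp)] at h0
      have hset : Finset.univ.filter (fun U' : Inv f =>
          W.1 ≤ U'.1 ∧ Module.finrank F W.1 + (1 + 0) ≤ Module.finrank F U'.1) =
          (Finset.univ.filter (fun U' : Inv f => W.1 ≤ U'.1)).erase W := by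
        ext X
        simp only [Finset.mem_filter, Finset.mem_univ, true_and, Finset.mem_erase, add_zero]
        refine ⟨fun h => ⟨fun e => by rw [e] at h; omega, h.1⟩, fun h => ⟨h.2, ?_⟩⟩
        have := Submodule.finrank_mono h.2
        by_contra hlt
        exact h.1 (Subtype.ext (Submodule.eq_of_le_of_finrank_le h.2 (by omega)).symm)
      rw [hset, pow_succ]
      linear_combination (-1 : ℤ) ^ m * h0
    rw [Finset.sum_congr rfl hinner, ← Finset.mul_sum]
    have hsplit : Finset.univ.filter (fun U' : Inv f =>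
        U.1 ≤ U'.1 ∧ Module.finrank F U.1 + (1 + a) ≤ Module.finrank F U'.1) =
      Finset.univ.filter (fun U' : Inv f =>
        U.1 ≤ U'.1 ∧ Module.finrank F U'.1 = Module.finrank F U.1 + (1 + a)) ∪
      Finset.univ.filter (fun U' : Inv f =>
        U.1 ≤ U'.1 ∧ Module.finrank F U.1 + (1 + (a + 1)) ≤ Module.finrank F U'.1) := by
      ext X
      simp only [Finset.mem_filter, Finset.mem_univ, true_and, Finset.mem_union]
      constructor
      · rintro ⟨h1, h2⟩
        rcases Nat.eq_or_lt_of_le h2 with h | h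
        · exact Or.inl ⟨h1, h.symm⟩
        · exact Or.inr ⟨h1, by omega⟩
      · rintro (⟨h1, h2⟩ | ⟨h1, h2⟩) <;> exact ⟨h1, by omega⟩
    rw [hsplit, Finset.sum_union]
    · ring
    · rw [Finset.disjoint_filter]
      intro X _ h h'
      omega

open scoped Classical in
/-- The signed sum from the zero subspace. -/
theorem signedSum_bot [Fintype (Inv f)] (G : Inv f → ℤ) (htop : G ⟨⊤, le_top⟩ = 1)
    (hsum : ∀ U : Inv f, U.1 ≠ ⊤ → ∑ U' ∈ Finset.univ.filter (fun U' : Inv f => U.1 ≤ U'.1), G U' = 0) :
    signedSum f (Module.finrank F V) ⊥ 0 =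
      (-1) ^ Module.finrank F V * G ⟨⊥, by simp⟩ := by
  generalize hn : Module.finrank F V = n
  cases n with
  | zero =>
    rw [signedSum_zero, pow_zero, one_mul]
    have : (⟨⊥, by simp⟩ : Inv f) = ⟨⊤, le_top⟩ :=
      Subtype.ext (Submodule.eq_top_of_finrank_eq (by rw [finrank_bot, hn]))
    rw [this, htop]
  | succ m =>
    rw [signedSum_eq f G htop hsum m ⟨⊥, by simp⟩ 0 (by rw [finrank_bot]; omega)]
    have hne : (⊥ : Submodule F V) ≠ ⊤ := fun h => by
      have h1 := congrArg (fun W : Submodule F V => Module.finrank F W) h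
      simp only [finrank_bot, finrank_top] at h1
      omega
    have h0 := hsum ⟨⊥, by simp⟩ hne
    rw [← Finset.add_sum_erase _ _ (a := (⟨⊥, by simp⟩ : Inv f)) (by simp)] at h0
    have hset : Finset.univ.filter (fun U' : Inv f => (⊥ : Submodule F V) ≤ U'.1 ∧
        Module.finrank F (⊥ : Submodule F V) + (1 + 0) ≤ Module.finrank F U'.1) =
        (Finset.univ.filter (fun U' : Inv f => (⊥ : Submodule F V) ≤ U'.1)).erase ⟨⊥, by simp⟩ := by
      ext X
      simp only [Finset.mem_filter, Finset.mem_univ, true_and, Finset.mem_erase, bot_le, finrank_bot,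
        add_zero, zero_add, and_true]
      rw [Ne, Subtype.ext_iff]
      exact Submodule.one_le_finrank_iff
    rw [hset, pow_succ]
    linear_combination (-1 : ℤ) ^ m * h0

end CfsgLib.SteinbergValues
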