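import Cfsg.Agent.Eq.Def_LinearParabolics
import Cfsg.Agent.Eq.Def_ParabolicCharacters
import Cfsg.Agent.Classical.Linear.ParabolicCard
import Cfsg.Agent.SteinbergValues.Chains

/-!
# Cosets of a standard parabolic subgroup as flags

The fixed cosets of an element are the invariant flags of the same type.
-/

set_option autoImplicit false
set_option linter.style.haveILetI false

namespace CfsgLib.SteinbergValues

open Cfsg Module Matrix CfsgLib.Classical.Linear

variable {F : Type*} [Field F] {n : ℕ}

/-- The span of the first `d` coordinate vectors. -/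
def stdSub (F : Type*) [Field F] (n d : ℕ) : Submodule F (Fin n → F) where
  carrier := {v | ∀ i : Fin n, d ≤ i.val → v i = 0}
  add_mem' := fun {a b} ha hb i hi => by simp [ha i hi, hb i hi]
  zero_mem' := fun i _ => rfl
  smul_mem' := fun c v hv i hi => by simp [hv i hi]

theorem finrank_stdSub {d : ℕ} (hd : d ≤ n) : finrank F (stdSub F n d) = d := by
  let e : (Fin d → F) ≃ₗ[F] stdSub F n d :=
    { toFun := fun x => ⟨fun i => if h : i.val < d then x ⟨i.val, h⟩ else 0,
        fun i hi => dif_neg (by omega)⟩
      map_add' := fun x y => by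
        refine Subtype.ext (funext fun i => ?_)
        show (if h : i.val < d then (x + y) ⟨i.val, h⟩ else 0) =
          (if h : i.val < d then x ⟨i.val, h⟩ else 0) + (if h : i.val < d then y ⟨i.val, h⟩ else 0)
        split_ifs <;> simp
      map_smul' := fun c x => by
        refine Subtype.ext (funext fun i => ?_)
        show (if h : i.val < d then (c • x) ⟨i.val, h⟩ else 0) =
          c • (if h : i.val < d then x ⟨i.val, h⟩ else 0)
        split_ifs <;> simp
      invFun := fun v j => v.1 ⟨j.val, by omega⟩
      left_inv := fun x => funext fun j => by simp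
      right_inv := fun v => by
        refine Subtype.ext (funext fun i => ?_)
        show (if h : i.val < d then v.1 ⟨i.val, _⟩ else 0) = v.1 i
        split_ifs with h
        · rfl
        · exact (v.2 i (by omega)).symm }
  rw [← e.finrank_eq, Module.finrank_fin_fun]

variable {c : Fin n → ℕ}

theorem sum_Iic_eq_compPartial (c : Fin n → ℕ) (a : Fin n) :
    ∑ k ∈ Finset.Iic a, c k = compPartial c (a + 1) := by
  rw [compPartial]
  exact Finset.sum_congr (by ext k; simp) fun _ _ => rfl

theorem compPartial_le (hc : ∑ i, c i = n) (a : ℕ) : compPartial c a ≤ n :=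
  (Finset.sum_le_sum_of_subset (Finset.filter_subset _ _)).trans hc.le

theorem lt_compPartial_iff (hc : ∑ i, c i = n) (j : Fin n) (a : Fin n) :
    j.val < compPartial c (a + 1) ↔ compLabel c j ≤ a.val := by
  obtain ⟨b, h1, h2⟩ := exists_compPartial_mem c hc j
  rw [compLabel_eq_of_mem c h1 h2]
  constructor
  · intro h
    by_contra hlt
    have := compPartial_mono c (show (a : ℕ) + 1 ≤ b by omega)
    omega
  · intro h
    have := compPartial_mono c (show (b : ℕ) + 1 ≤ a + 1 by omega)
    omega

/-- The linear map of an invertible matrix. -/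
abbrev glMap (g : GL (Fin n) F) : Module.End F (Fin n → F) :=
  Matrix.toLin' (g : Matrix (Fin n) (Fin n) F)

theorem glMap_mul (g h : GL (Fin n) F) (W : Submodule F (Fin n → F)) :
    W.map (glMap (g * h)) = (W.map (glMap h)).map (glMap g) := by
  rw [← Submodule.map_comp, glMap, Units.val_mul, Matrix.toLin'_mul]

theorem glMap_injective (g : GL (Fin n) F) : Function.Injective (glMap g) := by
  refine Function.HasLeftInverse.injective ⟨glMap g⁻¹, fun v => ?_⟩
  rw [glMap, glMap, ← LinearMap.comp_apply, ← Matrix.toLin'_mul, Units.inv_mul, Matrix.toLin'_one,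
    LinearMap.id_apply]

theorem glMap_one (W : Submodule F (Fin n → F)) : W.map (glMap 1) = W := by
  rw [glMap, Units.val_one, Matrix.toLin'_one, Submodule.map_id]

theorem finrank_map_glMap (g : GL (Fin n) F) (W : Submodule F (Fin n → F)) :
    finrank F (W.map (glMap g)) = finrank F W :=
  (Submodule.equivMapOfInjective (glMap g) (glMap_injective g) W).finrank_eq.symm

/-- Membership in a standard parabolic subgroup. -/
theorem mem_parabolicGL_iff (hc : ∑ i, c i = n) (g : GL (Fin n) F) :
    g ∈ parabolicGL n F c ↔
      ∀ a : Fin n, (stdSub F n (compPartial c (a + 1))).map (glMap g) =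
        stdSub F n (compPartial c (a + 1)) := by
  constructor
  · intro hg a
    refine Submodule.eq_of_le_of_finrank_eq ?_ (finrank_map_glMap g _)
    rintro _ ⟨v, hv, rfl⟩ i hi
    show (g : Matrix (Fin n) (Fin n) F).toLin' v i = 0
    rw [Matrix.toLin'_apply, Matrix.mulVec, dotProduct]
    refine Finset.sum_eq_zero fun j _ => ?_
    by_cases hj : compPartial c (a + 1) ≤ j.val
    · rw [hv j hj, mul_zero]
    · have h1 := (lt_compPartial_iff hc j a).1 (by omega)
      have h2 : ¬ compLabel c i ≤ a.val := fun h => by
        have := (lt_compPartial_iff hc i a).2 h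
        omega
      rw [show (g : Matrix (Fin n) (Fin n) F) i j = 0 from hg (show compLabel c j < compLabel c i by omega),
        zero_mul]
  · intro h i j hij
    have hlt : compLabel c j < n := compLabel_lt c hc j
    have hmem : (Pi.single j 1 : Fin n → F) ∈ stdSub F n (compPartial c (compLabel c j + 1)) := by
      intro k hk
      have := (lt_compPartial_iff hc j ⟨_, hlt⟩).2 le_rfl
      refine Pi.single_eq_of_ne ?_ _
      rintro rfl
      simp only at this
      omega
    have h1 : glMap g (Pi.single j 1) ∈ stdSub F n (compPartial c (compLabel c j + 1)) := by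
      rw [← h ⟨_, hlt⟩]
      exact Submodule.mem_map_of_mem hmem
    have h2 := h1 i (by
      by_contra hlt'
      have := (lt_compPartial_iff hc i ⟨_, hlt⟩).1 (by simp only; omega)
      simp only at this
      omega)
    simpa [glMap, Matrix.mulVec_single_one] using h2

theorem exists_adapted (hc : ∑ i, c i = n) (U : Fin n → Submodule F (Fin n → F))
    (hmono : ∀ a b, a ≤ b → U a ≤ U b) (hdim : ∀ a, finrank F (U a) = compPartial c (a + 1))
    (k : ℕ) (hk : k ≤ n) :
    ∃ v : ℕ → (Fin n → F), LinearIndependent F (fun i : Fin (compPartial c k) => v i) ∧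
      ∀ a : Fin n, a.val < k → Submodule.span F (v '' {i | i < compPartial c (a + 1)}) = U a := by
  induction k with
  | zero =>
    have h0 : compPartial c 0 = 0 := by simp [compPartial]
    refine ⟨fun _ => 0, ?_, fun a ha => absurd ha (Nat.not_lt_zero _)⟩
    haveI : IsEmpty (Fin (compPartial c 0)) := by rw [h0]; infer_instance
    exact linearIndependent_empty_type
  | succ k ih =>
    obtain ⟨v, hv, hspan⟩ := ih (by omega)
    let b : Fin n := ⟨k, by omega⟩
    set S := compPartial c k with hS
    have hS' : compPartial c (k + 1) = S + c b := compPartial_succ c b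
    have hle : Submodule.span F (Set.range fun i : Fin S => v i) ≤ U b := by
      rw [Submodule.span_le]
      rintro _ ⟨i, rfl⟩
      rcases Nat.eq_zero_or_pos k with h0 | h0
      · subst h0
        have hS0 : S = 0 := by simp [hS, compPartial]
        exact absurd i.isLt (by omega)
      · refine hmono ⟨k - 1, by omega⟩ b (show k - 1 ≤ k by omega) ?_
        rw [← hspan ⟨k - 1, by omega⟩ (show k - 1 < k by omega)]
        refine Submodule.subset_span ⟨i, ?_, rfl⟩
        show i.val < compPartial c (k - 1 + 1)
        rw [Nat.sub_add_cancel h0]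
        exact i.isLt
    set X := Submodule.span F (Set.range fun i : Fin S => v i) with hX
    obtain ⟨C, hC⟩ := Submodule.exists_isCompl X
    let C' := C ⊓ U b
    have hsup : X ⊔ C' = U b := by rw [← sup_inf_assoc_of_le C hle, hC.sup_eq_top, top_inf_eq]
    have hdis : Disjoint X C' := hC.disjoint.mono_right inf_le_left
    have hC'dim : finrank F C' = c b := by
      have h1 := Submodule.finrank_sup_add_finrank_inf_eq X C'
      rw [hsup, hdis.eq_bot, finrank_bot, hdim, finrank_span_eq_card hv, Fintype.card_fin] at h1
      change compPartial c (k + 1) + 0 = _ at h1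
      omega
    let B := Module.finBasisOfFinrankEq F C' hC'dim
    let v' : ℕ → (Fin n → F) := fun i =>
      if i < S then v i else if h : i - S < c b then (B ⟨i - S, h⟩ : Fin n → F) else 0
    have hsum : LinearIndependent F (Sum.elim (fun i : Fin S => v i) (fun i : Fin (c b) => (B i : Fin n → F))) := by
      refine hv.sum_type (B.linearIndependent.map' C'.subtype C'.ker_subtype) (hdis.mono_right ?_)
      rw [Submodule.span_le]
      rintro _ ⟨i, rfl⟩
      exact (B i).2
    have hv'li : LinearIndependent F (fun i : Fin (compPartial c (k + 1)) => v' i) := by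
      have h1 := hsum.comp (fun i : Fin (compPartial c (k + 1)) => finSumFinEquiv.symm (Fin.cast hS' i))
        (finSumFinEquiv.symm.injective.comp (Fin.cast_injective _))
      convert h1 using 1
      funext i
      simp only [v', Function.comp_apply]
      by_cases hi : i.val < S
      · rw [if_pos hi, show (Fin.cast hS' i) = Fin.castAdd (c b) ⟨i, hi⟩ from Fin.ext rfl,
          finSumFinEquiv_symm_apply_castAdd]
        rfl
      · have h2 : i.val - S < c b := by have := i.isLt; omega
        rw [if_neg hi, dif_pos h2, show (Fin.cast hS' i) = Fin.natAdd S ⟨i - S, h2⟩ from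
          Fin.ext (by simp; omega), finSumFinEquiv_symm_apply_natAdd]
        rfl
    refine ⟨v', hv'li, fun a ha => ?_⟩
    rcases Nat.lt_or_ge a.val k with hak | hak
    · rw [← hspan a hak]
      congr 1
      refine Set.image_congr fun i hi => if_pos ?_
      exact lt_of_lt_of_le hi (compPartial_mono c (by omega))
    · obtain rfl : a = b := Fin.ext (show a.val = k by omega)
      refine Submodule.eq_of_le_of_finrank_eq ?_ ?_
      · rw [Submodule.span_le]
        rintro _ ⟨i, hi, rfl⟩
        simp only [v']
        change i < compPartial c (k + 1) at hi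
        by_cases h1 : i < S
        · rw [if_pos h1]
          exact hle (Submodule.subset_span ⟨⟨i, h1⟩, rfl⟩)
        · rw [if_neg h1, dif_pos (show i - S < c b by omega)]
          exact (B _).2.2
      · rw [hdim]
        have himg : v' '' {i | i < compPartial c (b.val + 1)} =
            Set.range fun i : Fin (compPartial c (k + 1)) => v' i := by
          ext x
          simp only [Set.mem_image, Set.mem_ofPred_eq, Set.mem_range]
          exact ⟨fun ⟨i, hi, e⟩ => ⟨⟨i, hi⟩, e⟩, fun ⟨i, e⟩ => ⟨i, i.isLt, e⟩⟩
        rw [himg, finrank_span_eq_card hv'li, Fintype.card_fin]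

/-- The flags of type `c`. -/
abbrev FlagSet (F : Type*) [Field F] {n : ℕ} (c : Fin n → ℕ) : Type _ :=
  {U : Fin n → Submodule F (Fin n → F) //
    (∀ a, finrank F (U a) = compPartial c (a + 1)) ∧ ∀ a b, a ≤ b → U a ≤ U b}

theorem exists_gl (hc : ∑ i, c i = n) (U : FlagSet F c) :
    ∃ g : GL (Fin n) F, ∀ a : Fin n, (stdSub F n (compPartial c (a + 1))).map (glMap g) = U.1 a := by
  obtain ⟨v, hv, hspan⟩ := exists_adapted hc U.1 U.2.2 U.2.1 n le_rfl
  have hn : compPartial c n = n := by
    rw [compPartial, Finset.filter_true_of_mem fun k _ => k.isLt, hc]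
  let v' : Fin n → (Fin n → F) := fun i => v i
  have hv' : LinearIndependent F v' :=
    hv.comp (Fin.cast hn.symm) (Fin.cast_injective _)
  let M : Matrix (Fin n) (Fin n) F := (Matrix.of v')ᵀ
  have hM : IsUnit M := Matrix.linearIndependent_cols_iff_isUnit.1 hv'
  refine ⟨hM.unit, fun a => Submodule.eq_of_le_of_finrank_eq ?_ ?_⟩
  · rintro _ ⟨x, hx, rfl⟩
    rw [← hspan a a.isLt]
    show (hM.unit : Matrix (Fin n) (Fin n) F).toLin' x ∈ _
    rw [IsUnit.unit_spec, Matrix.toLin'_apply, Matrix.mulVec_eq_sum]
    refine Submodule.sum_mem _ fun j _ => ?_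
    by_cases hj : compPartial c (a + 1) ≤ j.val
    · simp [hx j hj]
    · have hmem : v' j ∈ Submodule.span F (v '' {i | i < compPartial c (a + 1)}) :=
        Submodule.subset_span ⟨j.val, Nat.lt_of_not_le hj, rfl⟩
      rw [op_smul_eq_smul, show M.transpose j = v' j from rfl]
      exact Submodule.smul_mem _ (x j) hmem
  · rw [finrank_map_glMap, finrank_stdSub (compPartial_le hc _), U.2.1]

/-- The action on flags. -/
def moveFlag (g : GL (Fin n) F) (U : FlagSet F c) : FlagSet F c :=
  ⟨fun a => (U.1 a).map (glMap g), fun a => by rw [finrank_map_glMap]; exact U.2.1 a,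
    fun a b h => Submodule.map_mono (U.2.2 a b h)⟩

/-- The standard flag. -/
def stdFlag (F : Type*) [Field F] (hc : ∑ i, c i = n) : FlagSet F c :=
  ⟨fun a => stdSub F n (compPartial c (a + 1)), fun a => finrank_stdSub (compPartial_le hc _),
    fun a b h v hv i hi => hv i ((compPartial_mono c (by
      have : a.val ≤ b.val := h
      omega)).trans hi)⟩

theorem moveFlag_mul (g h : GL (Fin n) F) (U : FlagSet F c) :
    moveFlag (g * h) U = moveFlag g (moveFlag h U) :=
  Subtype.ext (funext fun _ => glMap_mul g h _)

theorem moveFlag_one (U : FlagSet F c) : moveFlag 1 U = U :=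
  Subtype.ext (funext fun _ => glMap_one _)

theorem moveFlag_eq_iff (hc : ∑ i, c i = n) (g h : GL (Fin n) F) :
    moveFlag g (stdFlag F hc) = moveFlag h (stdFlag F hc) ↔ g⁻¹ * h ∈ parabolicGL n F c := by
  rw [mem_parabolicGL_iff hc]
  constructor
  · intro e a
    have h1 := congrArg (moveFlag g⁻¹) e
    rw [← moveFlag_mul, ← moveFlag_mul, inv_mul_cancel, moveFlag_one] at h1
    exact (congrFun (congrArg Subtype.val h1) a).symm
  · intro e
    have h1 : moveFlag (g⁻¹ * h) (stdFlag F hc) = stdFlag F hc :=
      Subtype.ext (funext fun a => e a)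
    conv_lhs => rw [← h1]
    rw [← moveFlag_mul, mul_inv_cancel_left]

/-- Cosets are flags. -/
noncomputable def cosetFlag (F : Type*) [Field F] (hc : ∑ i, c i = n) :
    GL (Fin n) F ⧸ parabolicGL n F c → FlagSet F c :=
  Quotient.lift (fun g => moveFlag g (stdFlag F hc)) fun g h e =>
    (moveFlag_eq_iff hc g h).2 (QuotientGroup.leftRel_apply.1 e)

theorem cosetFlag_mk (hc : ∑ i, c i = n) (g : GL (Fin n) F) :
    cosetFlag F hc (g : GL (Fin n) F ⧸ parabolicGL n F c) = moveFlag g (stdFlag F hc) := rfl

theorem cosetFlag_bijective (hc : ∑ i, c i = n) : Function.Bijective (cosetFlag F hc) := by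
  constructor
  · intro x y
    induction x using QuotientGroup.induction_on with
    | _ g =>
      induction y using QuotientGroup.induction_on with
      | _ h =>
        intro e
        rw [cosetFlag_mk, cosetFlag_mk, moveFlag_eq_iff] at e
        exact QuotientGroup.eq.2 e
  · intro U
    obtain ⟨g, hg⟩ := exists_gl hc U
    exact ⟨(g : GL (Fin n) F ⧸ parabolicGL n F c), Subtype.ext (funext hg)⟩

theorem cosetFlag_smul (hc : ∑ i, c i = n) (x : GL (Fin n) F)
    (q : GL (Fin n) F ⧸ parabolicGL n F c) :
    cosetFlag F hc (x • q) = moveFlag x (cosetFlag F hc q) := by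
  induction q using QuotientGroup.induction_on with
  | _ g =>
    rw [cosetFlag_mk, ← moveFlag_mul]
    rfl

/-- The fixed cosets are the invariant flags. -/
theorem fixedPointCharacter_parabolicGL (hc : ∑ i, c i = n) (x : GL (Fin n) F) :
    fixedPointCharacter (parabolicGL n F c) x = (numAbove (glMap x) c ⊥ : ℂ) := by
  have e : MulAction.fixedBy (GL (Fin n) F ⧸ parabolicGL n F c) x ≃
      {U : FlagSet F c // moveFlag x U = U} :=
    (Equiv.ofBijective _ (cosetFlag_bijective hc)).subtypeEquiv fun q => by
      show x • q = q ↔ moveFlag x (cosetFlag F hc q) = cosetFlag F hc q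
      rw [← cosetFlag_smul, (cosetFlag_bijective hc).1.eq_iff]
  rw [fixedPointCharacter, numAbove, Nat.card_congr e]
  congr 1
  refine Nat.card_congr
    { toFun := fun U => ⟨U.1.1, fun a => ⟨bot_le,
        (congrFun (congrArg Subtype.val U.2) a).le,
        by rw [U.1.2.1, finrank_bot, zero_add, sum_Iic_eq_compPartial]⟩, U.1.2.2⟩
      invFun := fun W => ⟨⟨W.1, fun a => by
          rw [(W.2.1 a).2.2, finrank_bot, zero_add, sum_Iic_eq_compPartial], W.2.2⟩,
        Subtype.ext (funext fun a =>
          Submodule.eq_of_le_of_finrank_eq (W.2.1 a).2.1 (finrank_map_glMap x _))⟩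
      left_inv := fun U => rfl
      right_inv := fun W => rfl }

end CfsgLib.SteinbergValues
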