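import Cfsg.Agent.Classical.Semisimple.Classify
import Cfsg.Agent.SteinbergValues.Chains

/-!
# A function on invariant subspaces of a semisimple map with vanishing interval sums

It is given by the characteristic polynomial on the quotient.
-/

set_option autoImplicit false
set_option linter.style.haveILetI false

namespace CfsgLib.SteinbergValues

open Module Polynomial CfsgLib.Classical.Semisimple UniqueFactorizationMonoid

variable {F V : Type*} [Field F] [AddCommGroup V] [Module F V] [FiniteDimensional F V]

open scoped _root_.Classical in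
/-- `(-1) ^ r * q ^ e` for the `r` factors and `e = Σ d * C(m, 2)`. -/
noncomputable def weight (q : ℕ) (P : F[X]) : ℤ :=
  (-1) ^ (normalizedFactors P).card *
    (q : ℤ) ^ (∑ g ∈ (normalizedFactors P).toFinset,
      g.natDegree * ((normalizedFactors P).count g).choose 2)

theorem weight_one (q : ℕ) : weight q (1 : F[X]) = 1 := by
  simp [weight]

open scoped _root_.Classical in
theorem weight_mul (q : ℕ) {g P : F[X]} (hg : Irreducible g) (hm : g.Monic) (hP : P ≠ 0) :
    weight q (g * P) = -((q : ℤ) ^ (g.natDegree * (normalizedFactors P).count g)) * weight q P := by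
  have hnf : normalizedFactors (g * P) = g ::ₘ normalizedFactors P := by
    rw [normalizedFactors_mul hg.ne_zero hP, normalizedFactors_irreducible hg, hm.normalize_eq_self,
      Multiset.singleton_add]
  set s := normalizedFactors P
  have hsum : (∑ h ∈ (g ::ₘ s).toFinset, h.natDegree * ((g ::ₘ s).count h).choose 2) =
      g.natDegree * s.count g + ∑ h ∈ s.toFinset, h.natDegree * (s.count h).choose 2 := by
    rw [Multiset.toFinset_cons]
    have h1 : ∀ h, h ≠ g → h.natDegree * ((g ::ₘ s).count h).choose 2 =
        h.natDegree * (s.count h).choose 2 := fun h hne => by rw [Multiset.count_cons_of_ne hne]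
    have h2 : g.natDegree * ((g ::ₘ s).count g).choose 2 =
        g.natDegree * s.count g + g.natDegree * (s.count g).choose 2 := by
      rw [Multiset.count_cons_self, Nat.choose_succ_succ', Nat.choose_one_right, mul_add]
    by_cases hmem : g ∈ s.toFinset
    · rw [Finset.insert_eq_of_mem hmem, ← Finset.add_sum_erase _ _ hmem,
        ← Finset.add_sum_erase _ (fun h => h.natDegree * (s.count h).choose 2) hmem, h2,
        Finset.sum_congr rfl fun h hh => h1 h (Finset.ne_of_mem_erase hh)]
      ring
    · rw [Finset.sum_insert hmem, h2, Finset.sum_congr rfl fun h hh => h1 h (fun e => hmem (e ▸ hh))]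
      have h0 : s.count g = 0 := Multiset.count_eq_zero.2 fun h => hmem (Multiset.mem_toFinset.2 h)
      simp [h0]
  rw [weight, weight, hnf, hsum, Multiset.card_cons, pow_succ, pow_add]
  ring

variable (f : Module.End F V)

open scoped _root_.Classical in
/-- The characteristic polynomial on a subspace, if invariant. -/
noncomputable def subChar (W : Submodule F V) : F[X] :=
  if h : W.map f ≤ W then (res f h).charpoly else 1

theorem subChar_of_inv {W : Submodule F V} (h : W.map f ≤ W) :
    subChar f W = (res f h).charpoly := dif_pos h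

theorem subChar_monic (W : Submodule F V) : (subChar f W).Monic := by
  rw [subChar]
  split_ifs
  · exact LinearMap.charpoly_monic _
  · exact monic_one

theorem subChar_sup {A B : Submodule F V} (hA : A.map f ≤ A) (hB : B.map f ≤ B)
    (hd : Disjoint A B) : subChar f (A ⊔ B) = subChar f A * subChar f B := by
  rw [subChar_of_inv f hA, subChar_of_inv f hB, subChar_of_inv f (sup_map_le hA hB)]
  let A' := A.comap (A ⊔ B).subtype
  let B' := B.comap (A ⊔ B).subtype
  have hA' : A'.map (res f (sup_map_le hA hB)) ≤ A' :=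
    map_le_of_forall_mem fun x hx => mem_of_map_le hA (x := (x : V)) hx
  have hB' : B'.map (res f (sup_map_le hA hB)) ≤ B' :=
    map_le_of_forall_mem fun x hx => mem_of_map_le hB (x := (x : V)) hx
  have hc : IsCompl A' B' := by
    constructor
    · rw [Submodule.disjoint_def]
      intro x hxA hxB
      exact Subtype.ext (Submodule.disjoint_def.1 hd x hxA hxB)
    · rw [codisjoint_iff, eq_top_iff]
      rintro ⟨x, hx⟩ -
      obtain ⟨a, ha, b, hb, rfl⟩ := Submodule.mem_sup.1 hx
      exact Submodule.mem_sup.2 ⟨⟨a, le_sup_left (a := A) (b := B) ha⟩, ha,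
        ⟨b, le_sup_right (a := A) (b := B) hb⟩, hb, rfl⟩
  rw [charpoly_eq_mul hc hA' hB']
  congr 1
  · let e : A' ≃ₗ[F] A := Submodule.comapSubtypeEquivOfLe le_sup_left
    have he : e.conj (res (res f (sup_map_le hA hB)) hA') = res f hA := by
      refine LinearMap.ext fun x => Subtype.ext ?_
      rfl
    rw [← he, LinearEquiv.charpoly_conj]
  · let e : B' ≃ₗ[F] B := Submodule.comapSubtypeEquivOfLe le_sup_right
    have he : e.conj (res (res f (sup_map_le hA hB)) hB') = res f hB := by
      refine LinearMap.ext fun x => Subtype.ext ?_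
      rfl
    rw [← he, LinearEquiv.charpoly_conj]

theorem subChar_top : subChar f ⊤ = f.charpoly := by
  rw [subChar_of_inv f (le_top : (⊤ : Submodule F V).map f ≤ ⊤)]
  have he : (Submodule.topEquiv : (⊤ : Submodule F V) ≃ₗ[F] V).conj (res f le_top) = f :=
    LinearMap.ext fun x => rfl
  conv_rhs => rw [← he, LinearEquiv.charpoly_conj]

theorem subChar_bot : subChar f ⊥ = 1 := by
  have h : (⊥ : Submodule F V).map f ≤ ⊥ := by simp
  rw [subChar_of_inv f h]
  exact (LinearMap.charpoly_monic _).natDegree_eq_zero.1 (by rw [LinearMap.charpoly_natDegree]; simp)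

/-- The value attached to an invariant subspace. -/
noncomputable def moebiusVal (q : ℕ) (U : Submodule F V) : ℤ :=
  weight q (f.charpoly / subChar f U)

theorem charpoly_div_of_isCompl {U C : Submodule F V} (hU : U.map f ≤ U) (hC : C.map f ≤ C)
    (h : IsCompl U C) : f.charpoly / subChar f U = subChar f C := by
  rw [← subChar_top f, ← h.sup_eq_top, subChar_sup f hU hC h.disjoint,
    mul_div_cancel_left₀ _ (subChar_monic f U).ne_zero]

variable {f}

open scoped _root_.Classical in
/-- The kernel of an irreducible polynomial in a semisimple map. -/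
theorem finrank_ker_aeval (hs : f.IsSemisimple) {g : F[X]} (hg : Irreducible g) (hm : g.Monic) :
    finrank F (LinearMap.ker (aeval f g)) =
      g.natDegree * (normalizedFactors f.charpoly).count g := by
  set K := LinearMap.ker (aeval f g)
  have hK : K.map f ≤ K := ker_map_le f g
  obtain ⟨C, hC, hKC⟩ := exists_invariant_compl hs hK
  have hcp : f.charpoly = (res f hK).charpoly * (res f hC).charpoly := charpoly_eq_mul hKC hK hC
  have hK0 : ∀ h : F[X], h ∈ normalizedFactors (res f hK).charpoly → h = g := by
    intro h hh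
    have hh1 := irreducible_of_normalized_factor h hh
    have hh2 : h.Monic := by
      rw [← normalize_normalized_factor h hh]
      exact Polynomial.monic_normalize hh1.ne_zero
    obtain ⟨v, hv, hv0⟩ := exists_apply_eq_zero_of_dvd_charpoly (isSemisimple_res hs hK) hh1 hh2
      (dvd_of_mem_normalizedFactors hh)
    have hgv : aeval (res f hK) g v = 0 := Subtype.ext (by
      rw [coe_aeval_res]
      exact LinearMap.mem_ker.1 v.2)
    by_contra hne
    obtain ⟨a, b, hab⟩ := hh1.coprime_iff_not_dvd.2 fun hd =>
      hne (eq_of_monic_of_associated hh2 hm (hh1.associated_of_dvd hg hd))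
    have := congrArg (fun u => aeval (res f hK) u v) hab
    simp [hv0, hgv] at this
    exact hv this.symm
  have hC0 : g ∉ normalizedFactors (res f hC).charpoly := by
    intro hh
    obtain ⟨v, hv, hv0⟩ := exists_apply_eq_zero_of_dvd_charpoly (isSemisimple_res hs hC) hg hm
      (dvd_of_mem_normalizedFactors hh)
    refine hv (Subtype.ext (Submodule.disjoint_def.1 hKC.disjoint v ?_ v.2))
    show aeval f g (v : V) = 0
    rw [← coe_aeval_res f hC, hv0]
    rfl
  obtain ⟨k, hk⟩ : ∃ k, normalizedFactors (res f hK).charpoly = Multiset.replicate k g :=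
    ⟨_, Multiset.eq_replicate_card.2 hK0⟩
  have hpow : (res f hK).charpoly = g ^ k := by
    have h := prod_normalizedFactors (LinearMap.charpoly_monic (res f hK)).ne_zero
    rw [hk, Multiset.prod_replicate] at h
    exact (eq_of_monic_of_associated (hm.pow k) (LinearMap.charpoly_monic _) h).symm
  have hdim : finrank F K = g.natDegree * k := by
    rw [← LinearMap.charpoly_natDegree (res f hK), hpow, natDegree_pow, mul_comm]
  rw [hdim, hcp, normalizedFactors_mul (LinearMap.charpoly_monic _).ne_zero
    (LinearMap.charpoly_monic _).ne_zero, Multiset.count_add, Multiset.count_eq_zero.2 hC0, add_zero,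
    hk, Multiset.count_replicate_self]

variable [Fintype F]

open scoped _root_.Classical in
/-- The commuting maps out of an irreducible invariant subspace. -/
theorem card_intertwiners {g : F[X]} (hg : Irreducible g) {A W : Submodule F V} (hA : A.map f ≤ A)
    (hW : W.map f ≤ W) (hgA : ∀ x ∈ A, aeval f g x = 0) (hdA : finrank F A = g.natDegree) :
    Nat.card {φ : A →ₗ[F] W // ∀ a, φ (res f hA a) = res f hW (φ a)} =
      Fintype.card F ^ finrank F (LinearMap.ker (aeval (res f hW) g)) := by
  have hpos : 0 < finrank F A := hdA ▸ hg.natDegree_pos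
  have : Nontrivial A := Module.nontrivial_of_finrank_pos hpos
  obtain ⟨v, hv⟩ := exists_ne (0 : A)
  have hgv : aeval (res f hA) g v = 0 := Subtype.ext (by rw [coe_aeval_res]; exact hgA v v.2)
  have hcyc : ∀ a : A, ∃ P : F[X], aeval (res f hA) P v = a := by
    obtain ⟨X', hX', hvX, hdX, hmin, -⟩ := exists_invariant_of_aeval_apply_eq_zero hg hv hgv
    let Y : Submodule F A := LinearMap.range ((LinearMap.applyₗ v).comp (aeval (res f hA)).toLinearMap)
    have hY : X' ≤ Y := by
      refine hmin Y (map_le_of_forall_mem ?_) ⟨1, by simp⟩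
      rintro _ ⟨P, rfl⟩
      exact ⟨X * P, by simp⟩
    have htop : X' = ⊤ := Submodule.eq_top_of_finrank_eq (by rw [hdX, hdA])
    intro a
    exact hY (by rw [htop]; trivial)
  have hcomm : ∀ (φ : A →ₗ[F] W), (∀ a, φ (res f hA a) = res f hW (φ a)) → ∀ (P : F[X]) (a : A),
      φ (aeval (res f hA) P a) = aeval (res f hW) P (φ a) := by
    intro φ hφ P
    induction P using Polynomial.induction_on with
    | C c => intro a; simp
    | add p r hp hr => intro a; simp [hp, hr]
    | monomial k c h =>
      intro a
      rw [pow_succ, ← mul_assoc, map_mul (aeval (res f hA)) (C c * X ^ k),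
        map_mul (aeval (res f hW)) (C c * X ^ k), Module.End.mul_apply, Module.End.mul_apply, h,
        aeval_X, aeval_X, hφ]
  let ev : {φ : A →ₗ[F] W // ∀ a, φ (res f hA a) = res f hW (φ a)} →
      LinearMap.ker (aeval (res f hW) g) :=
    fun φ => ⟨φ.1 v, by rw [LinearMap.mem_ker, ← hcomm φ.1 φ.2, hgv, map_zero]⟩
  have hev : Function.Bijective ev := by
    constructor
    · intro φ ψ h
      have h' : φ.1 v = ψ.1 v := congrArg Subtype.val h
      refine Subtype.ext (LinearMap.ext fun a => ?_)
      obtain ⟨P, rfl⟩ := hcyc a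
      rw [hcomm φ.1 φ.2, hcomm ψ.1 ψ.2, h']
    · rintro ⟨w, hw⟩
      rw [LinearMap.mem_ker] at hw
      let LA : F[X] →ₗ[F] A := (LinearMap.applyₗ v).comp (aeval (res f hA)).toLinearMap
      let LW : F[X] →ₗ[F] W := (LinearMap.applyₗ w).comp (aeval (res f hW)).toLinearMap
      have hsurj : Function.Surjective LA := hcyc
      have hker : LinearMap.ker LA ≤ LinearMap.ker LW := by
        intro P hP
        have hP' : aeval (res f hA) P v = 0 := hP
        show aeval (res f hW) P w = 0
        by_cases hd : g ∣ P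
        · obtain ⟨R, rfl⟩ := hd
          rw [mul_comm, map_mul, Module.End.mul_apply, hw, map_zero]
        · obtain ⟨a, b, hab⟩ := hg.coprime_iff_not_dvd.2 hd
          have := congrArg (fun u => aeval (res f hA) u v) hab
          simp [hP', hgv] at this
          exact absurd this.symm hv
      let φ : A →ₗ[F] W :=
        ((LinearMap.ker LA).liftQ LW hker).comp (LA.quotKerEquivOfSurjective hsurj).symm.toLinearMap
      have hφ : ∀ P, φ (LA P) = LW P := fun P => by
        have : (LA.quotKerEquivOfSurjective hsurj).symm (LA P) = Submodule.Quotient.mk P :=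
          (LA.quotKerEquivOfSurjective hsurj).injective (by simp)
        simp [φ, this]
      refine ⟨⟨φ, fun a => ?_⟩, Subtype.ext ?_⟩
      · obtain ⟨P, rfl⟩ := hsurj a
        rw [show res f hA (LA P) = LA (X * P) by simp [LA], hφ, hφ]
        simp [LW]
      · show φ v = w
        rw [show v = LA 1 by simp [LA], hφ]
        simp [LW]
  have : Finite V := Module.finite_of_finite F
  rw [Nat.card_eq_of_bijective ev hev, Module.natCard_eq_pow_finrank (K := F),
    Nat.card_eq_fintype_card]

open scoped _root_.Classical in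
/-- The sums over upper intervals vanish. -/
theorem sum_moebiusVal [Fintype (Inv f)] (hs : f.IsSemisimple) (U : Inv f) (hU : U.1 ≠ ⊤) :
    ∑ U' ∈ Finset.univ.filter (fun U' : Inv f => U.1 ≤ U'.1),
      moebiusVal f (Fintype.card F) U'.1 = 0 := by
  -- a maximal proper invariant subspace above `U`
  obtain ⟨H, hH, hmax⟩ := Finset.exists_max_image
    (Finset.univ.filter (fun U' : Inv f => U.1 ≤ U'.1 ∧ U'.1 ≠ ⊤))
    (fun U' => finrank F U'.1) ⟨U, by simp [hU]⟩
  simp only [Finset.mem_filter, Finset.mem_univ, true_and] at hH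
  have hcoatom : ∀ X : Inv f, H.1 ≤ X.1 → X.1 = H.1 ∨ X.1 = ⊤ := by
    intro X hX
    by_cases h : X.1 = ⊤
    · exact Or.inr h
    · refine Or.inl (Submodule.eq_of_le_of_finrank_le hX ?_).symm
      exact hmax X (Finset.mem_filter.2 ⟨Finset.mem_univ _, hH.1.trans hX, h⟩)
  obtain ⟨A, hA, hHA⟩ := exists_invariant_compl hs H.2
  have hA0 : A ≠ ⊥ := fun h => hH.2 (by have := hHA.sup_eq_top; rwa [h, sup_bot_eq] at this)
  have : Nontrivial A := Submodule.nontrivial_iff_ne_bot.2 hA0
  obtain ⟨g, hg, hm, v, hv, hv0⟩ := exists_monic_irreducible_apply (res f hA)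
  have hv0' : aeval f g (v : V) = 0 := by rw [← coe_aeval_res f hA, hv0]; rfl
  obtain ⟨A', hA', hvA', hdA', hminA', hkerA'⟩ :=
    exists_invariant_of_aeval_apply_eq_zero hg (fun h => hv (Subtype.ext h)) hv0'
  have hAA' : A' = A := by
    refine le_antisymm (hminA' A hA v.2) ?_
    have hle : A' ≤ A := hminA' A hA v.2
    rcases hcoatom ⟨H.1 ⊔ A', sup_map_le H.2 hA'⟩ le_sup_left with h | h
    · exfalso
      have : (v : V) ∈ H.1 := h.le (le_sup_right (a := H.1) hvA')
      exact hv (Subtype.ext (Submodule.disjoint_def.1 hHA.disjoint _ this v.2))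
    · intro a ha
      have : a ∈ H.1 ⊔ A' := h.symm.le trivial
      obtain ⟨x, hx, y, hy, hxy⟩ := Submodule.mem_sup.1 this
      have h0 : x = 0 := Submodule.disjoint_def.1 hHA.disjoint x hx
        (by rw [eq_sub_of_add_eq hxy]; exact A.sub_mem ha (hle hy))
      rw [← hxy, h0, zero_add]
      exact hy
  subst hAA'
  have hcA : subChar f A' = g := by
    rw [subChar_of_inv f hA]
    refine charpoly_eq_of_irreducible_aeval hg hm (LinearMap.ext fun x => Subtype.ext ?_) hdA'
    rw [coe_aeval_res]
    exact LinearMap.mem_ker.1 (hkerA' x.2)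
  rw [← Finset.sum_fiberwise_of_maps_to (g := fun X : Inv f => (⟨X.1 ⊓ H.1, inf_map_le X.2 H.2⟩ : Inv f))
    (t := Finset.univ.filter (fun T : Inv f => U.1 ≤ T.1 ∧ T.1 ≤ H.1))
    (fun X hX => by
      simp only [Finset.mem_filter, Finset.mem_univ, true_and] at hX ⊢
      exact ⟨le_inf hX hH.1, inf_le_right⟩)]
  refine Finset.sum_eq_zero fun T hT => ?_
  simp only [Finset.mem_filter, Finset.mem_univ, true_and] at hT
  rw [Finset.filter_filter]
  obtain ⟨W, hWH, hW, hTW, hdTW⟩ := exists_invariant_compl_in hs T.2 H.2 hT.2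
  have hWA : Disjoint W A' := hHA.disjoint.mono_left hWH
  have hTWA : IsCompl T.1 (W ⊔ A') := by
    constructor
    · rw [Submodule.disjoint_def]
      intro x hxT hx
      obtain ⟨w, hw, a, ha, rfl⟩ := Submodule.mem_sup.1 hx
      have h0 : a = 0 := Submodule.disjoint_def.1 hHA.disjoint a
        (by have := H.1.sub_mem (hT.2 hxT) (hWH hw); simpa using this) ha
      subst h0
      rw [add_zero] at hxT ⊢
      exact Submodule.disjoint_def.1 hdTW w hxT hw
    · rw [codisjoint_iff, ← sup_assoc, hTW, hHA.sup_eq_top]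
  have hvT : moebiusVal f (Fintype.card F) T.1 =
      -((Fintype.card F : ℤ) ^ finrank F (LinearMap.ker (aeval (res f hW) g))) *
        weight (Fintype.card F) (subChar f W) := by
    rw [moebiusVal, charpoly_div_of_isCompl f T.2 (sup_map_le hW hA) hTWA, subChar_sup f hW hA hWA,
      hcA, mul_comm, weight_mul _ hg hm (subChar_monic f W).ne_zero,
      finrank_ker_aeval (isSemisimple_res hs hW) hg hm, subChar_of_inv f hW]
  set K := Finset.univ.filter (fun X : Inv f => X.1 ⊓ H.1 = T.1 ∧ ¬ X.1 ≤ H.1) with hK
  have hfil : Finset.univ.filter (fun X : Inv f => U.1 ≤ X.1 ∧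
      (⟨X.1 ⊓ H.1, inf_map_le X.2 H.2⟩ : Inv f) = T) = insert T K := by
    ext X
    simp only [hK, Finset.mem_filter, Finset.mem_univ, true_and, Finset.mem_insert, Subtype.ext_iff]
    constructor
    · rintro ⟨-, h⟩
      by_cases hle : X.1 ≤ H.1
      · exact Or.inl ((inf_eq_left.2 hle).symm.trans h)
      · exact Or.inr ⟨h, hle⟩
    · rintro (h | ⟨h, -⟩)
      · rw [h]; exact ⟨hT.1, inf_eq_left.2 hT.2⟩
      · exact ⟨hT.1.trans (h ▸ inf_le_left), h⟩
  have hcompl : ∀ X ∈ K, IsCompl X.1 W := by
    intro X hX
    simp only [hK, Finset.mem_filter, Finset.mem_univ, true_and] at hX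
    constructor
    · rw [Submodule.disjoint_def]
      intro x hxX hxW
      exact Submodule.disjoint_def.1 hdTW x (hX.1.le ⟨hxX, hWH hxW⟩) hxW
    · rw [codisjoint_iff]
      rcases hcoatom ⟨X.1 ⊔ H.1, sup_map_le X.2 H.2⟩ le_sup_right with h | h
      · exact absurd (le_sup_left.trans h.le) hX.2
      · rw [eq_top_iff, ← h]
        refine sup_le le_sup_left ?_
        rw [← hTW]
        exact sup_le ((hX.1.ge.trans inf_le_left).trans le_sup_left) le_sup_right
  have hval : ∀ X ∈ K, moebiusVal f (Fintype.card F) X.1 = weight (Fintype.card F) (subChar f W) :=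
    fun X hX => by rw [moebiusVal, charpoly_div_of_isCompl f X.2 hW (hcompl X hX)]
  rw [hfil, Finset.sum_insert (fun h => (Finset.mem_filter.1 h).2.2 hT.2), Finset.sum_congr rfl hval, Finset.sum_const,
    nsmul_eq_mul, hvT]
  suffices hcard : K.card = Fintype.card F ^ finrank F (LinearMap.ker (aeval (res f hW) g)) by
    rw [hcard]; push_cast; ring
  rw [← card_intertwiners hg hA hW (fun x hx => LinearMap.mem_ker.1 (hkerA' hx)) hdA',
    ← Fintype.card_coe, ← Nat.card_eq_fintype_card]
  refine (Nat.card_eq_of_bijective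
    (fun φ : {φ : A' →ₗ[F] W // ∀ a, φ (res f hA a) = res f hW (φ a)} =>
      (⟨⟨T.1 ⊔ LinearMap.range (A'.subtype + W.subtype.comp φ.1), sup_map_le T.2
        (map_le_of_forall_mem (by
          rintro _ ⟨a, rfl⟩
          exact ⟨res f hA a, by simp [φ.2, coe_res]⟩))⟩, ?_⟩ : {X // X ∈ K})) ⟨?_, ?_⟩).symm
  · simp only [hK, Finset.mem_filter, Finset.mem_univ, true_and]
    constructor
    · refine le_antisymm ?_ (le_inf le_sup_left hT.2)
      intro x hx
      obtain ⟨t, ht, _, ⟨a, rfl⟩, rfl⟩ := Submodule.mem_sup.1 hx.1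
      have h1 : (a : V) ∈ H.1 := by
        have := H.1.sub_mem (H.1.sub_mem hx.2 (hT.2 ht)) (hWH (φ.1 a).2)
        simpa using this
      have h0 : a = 0 := Subtype.ext (Submodule.disjoint_def.1 hHA.disjoint _ h1 a.2)
      subst h0
      simpa using ht
    · intro hle
      have h1 : (A'.subtype + W.subtype.comp φ.1) ⟨(v : V), hvA'⟩ ∈ H.1 :=
        hle (le_sup_right (a := T.1) ⟨_, rfl⟩)
      have h2 : (v : V) ∈ H.1 := by
        have := H.1.sub_mem h1 (hWH (φ.1 ⟨(v : V), hvA'⟩).2)
        simpa using this
      exact hv (Subtype.ext (Submodule.disjoint_def.1 hHA.disjoint _ h2 v.2))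
  · intro φ ψ h
    have h' : T.1 ⊔ LinearMap.range (A'.subtype + W.subtype.comp φ.1) =
        T.1 ⊔ LinearMap.range (A'.subtype + W.subtype.comp ψ.1) :=
      congrArg (fun X : {X // X ∈ K} => X.1.1) h
    refine Subtype.ext (LinearMap.ext fun a => ?_)
    have hmem : (a : V) + (φ.1 a : V) ∈ T.1 ⊔ LinearMap.range (A'.subtype + W.subtype.comp ψ.1) :=
      h'.le (le_sup_right (a := T.1) ⟨a, by simp⟩)
    obtain ⟨t, ht, _, ⟨b, rfl⟩, htb⟩ := Submodule.mem_sup.1 hmem
    simp only [LinearMap.add_apply, Submodule.subtype_apply, LinearMap.comp_apply] at htb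
    have hab : (a : V) - b ∈ H.1 := by
      have e : (a : V) - b = t + (ψ.1 b : V) - (φ.1 a : V) := by linear_combination (norm := abel) htb.symm
      rw [e]
      exact H.1.sub_mem (H.1.add_mem (hT.2 ht) (hWH (ψ.1 b).2)) (hWH (φ.1 a).2)
    have hba : a = b := Subtype.ext (sub_eq_zero.1
      (Submodule.disjoint_def.1 hHA.disjoint _ hab (A'.sub_mem a.2 b.2)))
    subst hba
    have ht' : (φ.1 a : V) - (ψ.1 a : V) = t := by linear_combination (norm := abel) htb.symm
    exact Subtype.ext (sub_eq_zero.1 (Submodule.disjoint_def.1 hdTW _ (ht' ▸ ht)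
      (W.sub_mem (φ.1 a).2 (ψ.1 a).2)))
  · rintro ⟨X, hX⟩
    have hc := hcompl X hX
    let pr : V →ₗ[F] W := Submodule.projectionOnto W X.1 hc.symm
    have hprf : ∀ x, pr (f x) = res f hW (pr x) := by
      intro x
      obtain ⟨w, hw, y, hy, rfl⟩ := Submodule.mem_sup.1 (hc.symm.sup_eq_top.ge (Submodule.mem_top (x := x)))
      have e1 : pr y = 0 := Submodule.projectionOnto_apply_of_mem_right hc.symm hy
      have e2 : pr (f y) = 0 :=
        Submodule.projectionOnto_apply_of_mem_right hc.symm (mem_of_map_le X.2 hy)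
      have e3 : pr w = ⟨w, hw⟩ := Submodule.projectionOnto_apply_left hc.symm ⟨w, hw⟩
      have e4 : pr (f w) = ⟨f w, mem_of_map_le hW hw⟩ :=
        Submodule.projectionOnto_apply_left hc.symm ⟨f w, mem_of_map_le hW hw⟩
      rw [map_add, map_add, map_add, e1, e2, e3, e4, add_zero, add_zero]
      rfl
    refine ⟨⟨-(pr.comp A'.subtype), fun a => ?_⟩, Subtype.ext (Subtype.ext ?_)⟩
    · simp only [LinearMap.neg_apply, LinearMap.comp_apply, Submodule.subtype_apply, coe_res, hprf,
        map_neg]
    · simp only [hK, Finset.mem_filter, Finset.mem_univ, true_and] at hX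
      show T.1 ⊔ LinearMap.range (A'.subtype + W.subtype.comp (-(pr.comp A'.subtype))) = X.1
      refine le_antisymm (sup_le (hX.1.ge.trans inf_le_left) ?_) ?_
      · rintro _ ⟨a, rfl⟩
        obtain ⟨w, hw, y, hy, hwy⟩ := Submodule.mem_sup.1
          (hc.symm.sup_eq_top.ge (Submodule.mem_top (x := (a : V))))
        have e1 : pr y = 0 := Submodule.projectionOnto_apply_of_mem_right hc.symm hy
        have e3 : pr w = ⟨w, hw⟩ := Submodule.projectionOnto_apply_left hc.symm ⟨w, hw⟩
        have e5 : pr (a : V) = ⟨w, hw⟩ := by rw [← hwy, map_add, e1, e3, add_zero]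
        have : (A'.subtype + W.subtype.comp (-(pr.comp A'.subtype))) a = y := by
          simp only [LinearMap.add_apply, Submodule.subtype_apply, LinearMap.comp_apply,
            LinearMap.neg_apply, e5, Submodule.coe_neg]
          linear_combination (norm := abel) hwy.symm
        rw [this]
        exact hy
      · intro x hx
        obtain ⟨h, hh, a, ha, rfl⟩ :=
          Submodule.mem_sup.1 (hHA.sup_eq_top.ge (Submodule.mem_top (x := x)))
        obtain ⟨t, ht, w, hw, rfl⟩ := Submodule.mem_sup.1 (hTW.ge hh)
        have htX : t ∈ X.1 := (hX.1.ge ht).1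
        have hwa : w + a ∈ X.1 := by
          have := X.1.sub_mem hx htX
          simpa [add_assoc] using this
        have hpa : pr a = -⟨w, hw⟩ := by
          have e0 : pr (w + a) = 0 := Submodule.projectionOnto_apply_of_mem_right hc.symm hwa
          have e3 : pr w = ⟨w, hw⟩ := Submodule.projectionOnto_apply_left hc.symm ⟨w, hw⟩
          rw [map_add, e3] at e0
          exact eq_neg_of_add_eq_zero_right e0
        refine Submodule.mem_sup.2 ⟨t, ht, w + a, ⟨⟨a, ha⟩, ?_⟩, by abel⟩
        simp only [LinearMap.add_apply, Submodule.subtype_apply, LinearMap.comp_apply,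
          LinearMap.neg_apply, hpa, neg_neg]
        abel

omit [Fintype F] in
theorem moebiusVal_top (q : ℕ) : moebiusVal f q ⊤ = 1 := by
  rw [moebiusVal, subChar_top, EuclideanDomain.div_self f.charpoly_monic.ne_zero, weight_one]

omit [Fintype F] in
theorem moebiusVal_bot (q : ℕ) : moebiusVal f q ⊥ = weight q f.charpoly := by
  rw [moebiusVal, subChar_bot, EuclideanDomain.div_one]

end CfsgLib.SteinbergValues
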